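import Cfsg.Prelude.Def_AxialAlgebras

/-! Majorana pairs: the working form `Ax` of a normalised Majorana pair, conjugation of pairs and
uniqueness of the Miyamoto involution. -/

set_option autoImplicit false

namespace CF.Known.Maj

open Cfsg.Axial

variable {V : Type*} [AddCommGroup V] [Module ℝ V] {mul : V →ₗ[ℝ] V →ₗ[ℝ] V}
  {B : LinearMap.BilinForm ℝ V}

theorem mem_eigen {a v : V} {c : ℝ} : v ∈ eigen mul a c ↔ mul a v = c • v :=
  Module.End.mem_eigenspace_iff

theorem eigenSum_induction {a : V} {S : Set ℝ} {P : V → Prop} (h0 : P 0)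
    (hadd : ∀ u v, P u → P v → P (u + v)) (he : ∀ c ∈ S, ∀ v, mul a v = c • v → P v)
    {v : V} (hv : v ∈ eigenSum mul a S) : P v := by
  unfold eigenSum at hv
  refine Submodule.iSup_induction (motive := P) _ hv ?_ h0 hadd
  intro c x hx
  by_cases hc : c ∈ S
  · rw [iSup_pos hc] at hx
    exact he c hc x (mem_eigen.1 hx)
  · rw [iSup_neg hc] at hx
    rw [(Submodule.mem_bot ℝ).1 hx]; exact h0

theorem mem_eigenSum {a v : V} {S : Set ℝ} {c : ℝ} (hc : c ∈ S) (hv : mul a v = c • v) :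
    v ∈ eigenSum mul a S := by
  unfold eigenSum
  exact Submodule.mem_iSup_of_mem c (Submodule.mem_iSup_of_mem hc (mem_eigen.2 hv))

/-- Decomposition into the four eigencomponents. -/
theorem decomp {μ : V ≃ₗ[ℝ] V} {a : V} (h : IsMajoranaPair mul B μ a) (v : V) :
    ∃ (c : ℝ) (x y z : V), v = c • a + x + y + z ∧ mul a x = 0 ∧ mul a y = (1 / 4 : ℝ) • y ∧
      mul a z = (1 / 32 : ℝ) • z := by
  have hv : v ∈ eigenSum mul a majoranaSpectrum := by rw [h.2.2.1.1.2.2.1]; trivial
  refine eigenSum_induction (P := fun v => ∃ (c : ℝ) (x y z : V), v = c • a + x + y + z ∧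
    mul a x = 0 ∧ mul a y = (1 / 4 : ℝ) • y ∧ mul a z = (1 / 32 : ℝ) • z) ?_ ?_ ?_ hv
  · exact ⟨0, 0, 0, 0, by simp, by simp, by simp, by simp⟩
  · rintro u v ⟨c, x, y, z, rfl, h1, h2, h3⟩ ⟨c', x', y', z', rfl, h1', h2', h3'⟩
    refine ⟨c + c', x + x', y + y', z + z', by module, ?_, ?_, ?_⟩
    · rw [map_add, h1, h1', add_zero]
    · rw [map_add, h2, h2', smul_add]
    · rw [map_add, h3, h3', smul_add]
  · intro c hc v hv
    simp only [majoranaSpectrum, Set.mem_insert_iff, Set.mem_singleton_iff] at hc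
    rcases hc with rfl | rfl | rfl | rfl
    · have : v ∈ Submodule.span ℝ {a} := by rw [← h.2.2.1.2]; exact mem_eigen.2 hv
      obtain ⟨c, rfl⟩ := Submodule.mem_span_singleton.1 this
      exact ⟨c, 0, 0, 0, by simp, by simp, by simp, by simp⟩
    · exact ⟨0, v, 0, 0, by simp, by simpa using hv, by simp, by simp⟩
    · exact ⟨0, 0, v, 0, by simp, by simp, hv, by simp⟩
    · exact ⟨0, 0, 0, v, by simp, by simp, by simp, hv⟩

theorem pair_idem {μ : V ≃ₗ[ℝ] V} {a : V} (h : IsMajoranaPair mul B μ a) : mul a a = a :=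
  h.2.2.1.1.2.1

theorem pair_fix {μ : V ≃ₗ[ℝ] V} {a : V} (h : IsMajoranaPair mul B μ a) {c : ℝ}
    (hc : c ∈ ({1, 0, 1 / 4} : Set ℝ)) {v : V} (hv : mul a v = c • v) : μ v = v :=
  h.2.2.2.1 v (mem_eigenSum hc hv)

theorem pair_neg {μ : V ≃ₗ[ℝ] V} {a : V} (h : IsMajoranaPair mul B μ a) {v : V}
    (hv : mul a v = (1 / 32 : ℝ) • v) : μ v = -v :=
  h.2.2.2.2 v (mem_eigen.2 hv)

theorem pair_apply {μ : V ≃ₗ[ℝ] V} {a : V} (h : IsMajoranaPair mul B μ a) {c : ℝ} {x y z : V}
    (h1 : mul a x = 0) (h2 : mul a y = (1 / 4 : ℝ) • y) (h3 : mul a z = (1 / 32 : ℝ) • z) :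
    μ (c • a + x + y + z) = c • a + x + y - z := by
  have e1 : μ a = a := pair_fix h (c := 1) (by simp) (by rw [pair_idem h, one_smul])
  have e2 : μ x = x := pair_fix h (c := 0) (by simp) (by rw [h1, zero_smul])
  have e3 : μ y = y := pair_fix h (c := 1 / 4) (by simp) h2
  simp only [map_add, map_smul, e1, e2, e3, pair_neg h h3]
  abel

/-- The Miyamoto involution is determined by the axis. -/
theorem pair_unique {μ μ' : V ≃ₗ[ℝ] V} {a : V} (h : IsMajoranaPair mul B μ a)
    (h' : IsMajoranaPair mul B μ' a) : μ = μ' := by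
  ext v
  obtain ⟨c, x, y, z, rfl, h1, h2, h3⟩ := decomp h v
  rw [pair_apply h h1 h2 h3, pair_apply h' h1 h2 h3]

theorem pair_mul_self {μ : V ≃ₗ[ℝ] V} {a : V} (h : IsMajoranaPair mul B μ a) : μ * μ = 1 := by
  ext v
  obtain ⟨c, x, y, z, rfl, h1, h2, h3⟩ := decomp h v
  have h3' : mul a (-z) = (1 / 32 : ℝ) • (-z) := by rw [map_neg, h3, smul_neg]
  rw [LinearEquiv.mul_apply, pair_apply h h1 h2 h3, sub_eq_add_neg, pair_apply h h1 h2 h3']
  simp

theorem map_eigenSum {g : V ≃ₗ[ℝ] V} (hg : ∀ u v, g (mul u v) = mul (g u) (g v)) {a v : V}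
    {S : Set ℝ} (hv : v ∈ eigenSum mul a S) : g v ∈ eigenSum mul (g a) S := by
  refine eigenSum_induction (P := fun v => g v ∈ eigenSum mul (g a) S) ?_ ?_ ?_ hv
  · simp
  · intro u v hu hv; rw [map_add]; exact add_mem hu hv
  · intro c hc v hv
    exact mem_eigenSum hc (by rw [← hg, hv, map_smul])

theorem symm_mul {g : V ≃ₗ[ℝ] V} (hg : ∀ u v, g (mul u v) = mul (g u) (g v)) (u v : V) :
    g.symm (mul u v) = mul (g.symm u) (g.symm v) := by
  apply g.injective; rw [hg]; simp

/-- Conjugation of a Majorana pair by an isometric automorphism. -/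
theorem pair_conj {μ g : V ≃ₗ[ℝ] V} {a : V} (h : IsMajoranaPair mul B μ a)
    (hg : ∀ u v, g (mul u v) = mul (g u) (g v)) (hB : ∀ u v, B (g u) (g v) = B u v) :
    IsMajoranaPair mul B (g * μ * g⁻¹) (g a) := by
  have hg' := symm_mul hg
  have hB' : ∀ u v, B (g.symm u) (g.symm v) = B u v := fun u v => by rw [← hB]; simp
  have ap : ∀ v, (g * μ * g⁻¹) v = g (μ (g.symm v)) := fun v => rfl
  have eig : ∀ {c : ℝ} {v : V}, mul (g a) v = c • v → mul a (g.symm v) = c • g.symm v := by
    intro c v hv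
    have := hg' (g a) v
    rw [hv, map_smul] at this
    simpa using this.symm
  have eigS : ∀ {S : Set ℝ} {v : V}, v ∈ eigenSum mul (g a) S →
      g.symm v ∈ eigenSum mul a S := by
    intro S v hv
    simpa using map_eigenSum hg' hv
  refine ⟨fun u v => ?_, fun u v => ?_, ⟨⟨?_, ?_, ?_, ?_⟩, ?_⟩, ?_, ?_⟩
  · rw [ap, ap, ap, hg', h.1, hg]
  · rw [ap, ap, hB, h.2.1, hB']
  · intro h0
    exact h.2.2.1.1.1 (g.injective (by rw [h0, map_zero]))
  · rw [← hg, pair_idem h]
  · rw [eq_top_iff]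
    intro v _
    have : g.symm v ∈ eigenSum mul a majoranaSpectrum := by rw [h.2.2.1.1.2.2.1]; trivial
    simpa using map_eigenSum hg this
  · intro c hc d hd u hu v hv
    have := h.2.2.1.1.2.2.2 c hc d hd _ (mem_eigen.2 (eig (mem_eigen.1 hu))) _
      (mem_eigen.2 (eig (mem_eigen.1 hv)))
    have := map_eigenSum hg this
    rwa [hg, g.apply_symm_apply, g.apply_symm_apply] at this
  · apply le_antisymm
    · intro v hv
      have : g.symm v ∈ Submodule.span ℝ {a} := by
        rw [← h.2.2.1.2]; exact mem_eigen.2 (eig (mem_eigen.1 hv))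
      obtain ⟨c, hc⟩ := Submodule.mem_span_singleton.1 this
      refine Submodule.mem_span_singleton.2 ⟨c, ?_⟩
      rw [← map_smul, hc]; simp
    · rw [Submodule.span_singleton_le_iff_mem, mem_eigen, ← hg, pair_idem h, one_smul]
  · intro v hv
    have := h.2.2.2.1 _ (eigS hv)
    change g (μ (g.symm v)) = v
    rw [show μ (g.symm v) = g.symm v from this]; simp
  · intro v hv
    change g (μ (g.symm v)) = -v
    rw [pair_neg h (eig (mem_eigen.1 hv))]; simp

/-- The working form of a normalised Majorana pair. -/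
structure Ax (mul : V →ₗ[ℝ] V →ₗ[ℝ] V) (B : LinearMap.BilinForm ℝ V) (τ : V ≃ₗ[ℝ] V) (a : V) :
    Prop where
  hmul : ∀ u v, τ (mul u v) = mul (τ u) (τ v)
  hB : ∀ u v, B (τ u) (τ v) = B u v
  inv : ∀ v, τ (τ v) = v
  fix : τ a = a
  idem : mul a a = a
  norm : B a a = 1
  odd : ∀ v, mul a v - mul a (τ v) = (1 / 32 : ℝ) • (v - τ v)
  even : ∀ v, τ v = v → mul a (mul a v) = (1 / 4 : ℝ) • mul a v + (3 / 4 * B a v) • a
  f00 : ∀ x y, mul a x = 0 → mul a y = 0 → mul a (mul x y) = 0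
  f04 : ∀ x y, mul a x = 0 → mul a y = (1 / 4 : ℝ) • y →
    mul a (mul x y) = (1 / 4 : ℝ) • mul x y
  f44 : ∀ x y, mul a x = (1 / 4 : ℝ) • x → mul a y = (1 / 4 : ℝ) • y →
    mul a (mul x y) = (1 / 4 * B x y) • a

theorem B_eigen (hV : IsMajoranaAmbient mul B) {a v : V} (ha : mul a a = a) {c : ℝ}
    (hc : c ≠ 1) (hv : mul a v = c • v) : B a v = 0 := by
  have := hV.2.2.2.1 a a v
  rw [ha, hv, map_smul, smul_eq_mul] at this
  have h2 : (c - 1) * B a v = 0 := by linarith
  exact (mul_eq_zero.1 h2).resolve_left (sub_ne_zero.2 hc)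

theorem Ax.of_pair (hV : IsMajoranaAmbient mul B) {μ : V ≃ₗ[ℝ] V} {a : V}
    (h : IsMajoranaPair mul B μ a) (hn : B a a = 1) : Ax mul B μ a := by
  have hi := pair_idem h
  have fus := h.2.2.1.1.2.2.2
  have s0 : (0 : ℝ) ∈ majoranaSpectrum := by simp [majoranaSpectrum]
  have s4 : (1 / 4 : ℝ) ∈ majoranaSpectrum := by simp [majoranaSpectrum]
  refine ⟨h.1, h.2.1, fun v => ?_, ?_, hi, hn, fun v => ?_, fun v hv => ?_, ?_, ?_, ?_⟩
  · have := congrArg (fun g : V ≃ₗ[ℝ] V => g v) (pair_mul_self h)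
    simpa using this
  · exact pair_fix h (c := 1) (by simp) (by rw [hi, one_smul])
  · obtain ⟨c, x, y, z, rfl, h1, h2, h3⟩ := decomp h v
    rw [pair_apply h h1 h2 h3]
    simp only [map_add, map_sub, h3]
    module
  · obtain ⟨c, x, y, z, rfl, h1, h2, h3⟩ := decomp h v
    rw [pair_apply h h1 h2 h3] at hv
    have hz : z = 0 := by
      have : (2 : ℝ) • z = 0 := by linear_combination (norm := module) (-1 : ℝ) • hv
      simpa using this
    subst hz
    have b1 : B a x = 0 := B_eigen hV hi (c := 0) (by norm_num) (by rw [h1, zero_smul])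
    have b2 : B a y = 0 := B_eigen hV hi (by norm_num) h2
    simp only [map_add, map_smul, map_zero, h1, h2, hi, hn, b1, b2, smul_eq_mul]
    module
  · intro x y hx hy
    have := fus 0 s0 0 s0 x (mem_eigen.2 (by rw [hx, zero_smul])) y
      (mem_eigen.2 (by rw [hy, zero_smul]))
    have e : monsterLaw (1 / 4 : ℝ) (1 / 32) 0 0 = {0} := by
      simp only [monsterLaw]; norm_num
    rw [e] at this
    refine eigenSum_induction (P := fun v => mul a v = 0) (by simp) ?_ ?_ this
    · intro u v hu hv; rw [map_add, hu, hv, add_zero]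
    · rintro c rfl v hv; rw [hv, zero_smul]
  · intro x y hx hy
    have := fus 0 s0 _ s4 x (mem_eigen.2 (by rw [hx, zero_smul])) y (mem_eigen.2 hy)
    have e : monsterLaw (1 / 4 : ℝ) (1 / 32) 0 (1 / 4) = {1 / 4} := by
      simp only [monsterLaw]; norm_num
    rw [e] at this
    refine eigenSum_induction (P := fun v => mul a v = (1 / 4 : ℝ) • v) (by simp) ?_ ?_ this
    · intro u v hu hv; rw [map_add, hu, hv, smul_add]
    · rintro c rfl v hv; exact hv
  · intro x y hx hy
    have := fus _ s4 _ s4 x (mem_eigen.2 hx) y (mem_eigen.2 hy)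
    have e : monsterLaw (1 / 4 : ℝ) (1 / 32) (1 / 4) (1 / 4) = {1, 0} := by
      simp only [monsterLaw]; norm_num
    rw [e] at this
    have key : mul a (mul x y) = B a (mul x y) • a := by
      refine eigenSum_induction (P := fun v => mul a v = B a v • a) (by simp) ?_ ?_ this
      · intro u v hu hv; rw [map_add, hu, hv, map_add, add_smul]
      · intro c hc v hv
        simp only [Set.mem_insert_iff, Set.mem_singleton_iff] at hc
        rcases hc with rfl | rfl
        · have : v ∈ Submodule.span ℝ {a} := by rw [← h.2.2.1.2]; exact mem_eigen.2 hv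
          obtain ⟨c, rfl⟩ := Submodule.mem_span_singleton.1 this
          simp [hi, hn]
        · rw [B_eigen hV hi (by norm_num) hv, hv, zero_smul, zero_smul]
    rw [key, hV.2.2.2.1, hx]
    simp

theorem eq_of_B_one (hV : IsMajoranaAmbient mul B) {a b : V} (ha : B a a = 1) (hb : B b b = 1)
    (hab : B a b = 1) : a = b := by
  by_contra hne
  have := hV.2.2.1 (a - b) (sub_ne_zero.2 hne)
  simp only [map_sub, LinearMap.sub_apply, ha, hb, hab, hV.2.1 b a] at this
  norm_num at this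

end CF.Known.Maj
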