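import Cfsg.Agent.Known.Maj.Core

/-! Sakuma's theorem, part 2: the dihedral chain of axes, the linear relation between
`a₋₂, …, a₃, σ₂ᵉ, σ₂ᵒ`, and the nine possible pairs of inner products. -/

set_option autoImplicit false

namespace CF.Known.Maj

open Cfsg.Axial

variable {V : Type*} [AddCommGroup V] [Module ℝ V] {mul : V →ₗ[ℝ] V →ₗ[ℝ] V}
  {B : LinearMap.BilinForm ℝ V}

/-- The axes `aᵢ` of a dihedral algebra with their involutions `tᵢ : aⱼ ↦ a_{2i-j}`. -/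
structure Chain (mul : V →ₗ[ℝ] V →ₗ[ℝ] V) (B : LinearMap.BilinForm ℝ V) where
  a : ℤ → V
  t : ℤ → V ≃ₗ[ℝ] V
  ax : ∀ i, Ax mul B (t i) (a i)
  refl : ∀ i j k, j + k = 2 * i → t i (a j) = a k

namespace Chain

variable (c : Chain mul B)

/-- `σ i j = aᵢ aⱼ - (aᵢ + aⱼ)/32`. -/
noncomputable def σ (i j : ℤ) : V := mul (c.a i) (c.a j) - (1 / 32 : ℝ) • (c.a i + c.a j)

theorem mul_eq (i j : ℤ) : mul (c.a i) (c.a j) = c.σ i j + (1 / 32 : ℝ) • (c.a i + c.a j) := by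
  rw [σ]; abel

theorem σ_comm (hV : IsMajoranaAmbient mul B) (i j : ℤ) : c.σ i j = c.σ j i := by
  rw [σ, σ, hV.1, add_comm]

theorem σ_refl (i j k : ℤ) (h : j + k = 2 * i) : c.σ i j = c.σ i k := by
  have := ((c.ax i).lemA (c.mul_eq i j)).1
  rw [c.refl i j k h, c.mul_eq] at this
  exact (add_right_cancel this).symm

theorem mul_σ (i j k : ℤ) (h : j + k = 2 * i) : mul (c.a i) (c.σ i j) =
    (7 / 32 : ℝ) • c.σ i j + (3 / 4 * B (c.a i) (c.a j) - 25 / 1024) • c.a i +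
      (7 / 2048 : ℝ) • (c.a j + c.a k) := by
  have := ((c.ax i).lemA (c.mul_eq i j)).2
  rwa [c.refl i j k h] at this

theorem B_refl (i j j' k k' : ℤ) (h : j + k = 2 * i) (h' : j' + k' = 2 * i) :
    B (c.a j) (c.a j') = B (c.a k) (c.a k') := by
  rw [← c.refl i j k h, ← c.refl i j' k' h', (c.ax i).hB]

theorem σ_one (hV : IsMajoranaAmbient mul B) (i : ℤ) : c.σ i (i + 1) = c.σ 0 1 := by
  induction i using Int.induction_on with
  | zero => rfl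
  | succ n ih => rw [c.σ_refl (n + 1) (n + 1 + 1) n (by ring), c.σ_comm hV, ih]
  | pred n ih =>
    rw [c.σ_comm hV, show -(n : ℤ) - 1 + 1 = -n by ring, c.σ_refl (-n) (-n - 1) (-n + 1) (by ring),
      ih]

theorem B_one (hV : IsMajoranaAmbient mul B) (i : ℤ) :
    B (c.a i) (c.a (i + 1)) = B (c.a 0) (c.a 1) := by
  induction i using Int.induction_on with
  | zero => rfl
  | succ n ih => rw [c.B_refl (n + 1) (n + 1) (n + 1 + 1) (n + 1) n (by ring) (by ring), hV.2.1, ih]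
  | pred n ih =>
    rw [hV.2.1, show -(n : ℤ) - 1 + 1 = -n by ring,
      c.B_refl (-n) (-n) (-n - 1) (-n) (-n + 1) (by ring) (by ring), ih]

theorem σ1 (hV : IsMajoranaAmbient mul B) (i j : ℤ) (h : j = i + 1 ∨ i = j + 1) :
    c.σ i j = c.σ 0 1 := by
  rcases h with rfl | rfl
  · exact c.σ_one hV i
  · rw [c.σ_comm hV, c.σ_one hV]

theorem B1 (hV : IsMajoranaAmbient mul B) (i j : ℤ) (h : j = i + 1 ∨ i = j + 1) :
    B (c.a i) (c.a j) = B (c.a 0) (c.a 1) := by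
  rcases h with rfl | rfl
  · exact c.B_one hV i
  · rw [hV.2.1, c.B_one hV]

theorem mul1 (hV : IsMajoranaAmbient mul B) (i j : ℤ) (h : j = i + 1 ∨ i = j + 1) :
    mul (c.a i) (c.a j) = c.σ 0 1 + (1 / 32 : ℝ) • (c.a i + c.a j) := by
  rw [c.mul_eq, c.σ1 hV i j h]

theorem mul_s (hV : IsMajoranaAmbient mul B) (i j k : ℤ) (h : j = i + 1 ∨ i = j + 1)
    (h' : j + k = 2 * i) : mul (c.a i) (c.σ 0 1) =
    (7 / 32 : ℝ) • c.σ 0 1 + (3 / 4 * B (c.a 0) (c.a 1) - 25 / 1024) • c.a i +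
      (7 / 2048 : ℝ) • (c.a j + c.a k) := by
  have := c.mul_σ i j k h'
  rwa [c.σ1 hV i j h, c.B1 hV i j h] at this

theorem B_σ (hV : IsMajoranaAmbient mul B) (i j : ℤ) : B (c.a i) (c.σ i j) =
    B (c.a i) (c.a j) - 1 / 32 * (1 + B (c.a i) (c.a j)) :=
  B_sigma hV (c.ax i).idem (c.ax i).norm (c.mul_eq i j)

theorem B_s (hV : IsMajoranaAmbient mul B) (i : ℤ) : B (c.a i) (c.σ 0 1) =
    B (c.a 0) (c.a 1) - 1 / 32 * (1 + B (c.a 0) (c.a 1)) := by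
  have := c.B_σ hV i (i + 1)
  rwa [c.σ_one hV, c.B_one hV] at this

theorem B_mid (hV : IsMajoranaAmbient mul B) (i j k : ℤ) (h : j = i + 1) (h' : i = k + 1) :
    B (c.a i) (c.σ j k) = B (c.a 0) (c.a 1) - 1 / 32 * (1 + B (c.a 0) (c.a 1)) +
      1 / 32 * (B (c.a j) (c.a k) - B (c.a 0) (c.a 1)) := by
  have := hV.2.2.2.1 (c.a i) (c.a j) (c.a k)
  rw [c.mul_eq j k, c.mul1 hV i j (.inl h)] at this
  simp only [map_add, map_smul, LinearMap.add_apply, LinearMap.smul_apply, smul_eq_mul] at this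
  rw [hV.2.1 (c.σ 0 1), c.B_s hV, c.B1 hV i j (.inl h), c.B1 hV i k (.inr h')] at this
  linear_combination this

theorem B_two (hV : IsMajoranaAmbient mul B) : B (c.a 1) (c.a (-1)) = B (c.a 0) (c.a 2) := by
  have h1 := B_sigma_sigma hV (c.mul1 hV 0 1 (by norm_num)) (c.mul_s hV 0 1 (-1) (by norm_num)
    (by norm_num)) (c.B_s hV 0) (c.B_s hV 1) (c.B1 hV 1 0 (by norm_num)) (c.ax 1).norm rfl
  have h2 := B_sigma_sigma hV (c.mul1 hV 1 0 (by norm_num)) (c.mul_s hV 1 0 2 (by norm_num)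
    (by norm_num)) (c.B_s hV 1) (c.B_s hV 0) rfl (c.ax 0).norm rfl
  linear_combination (2048 / 7) * (h2 - h1)

theorem core0 (hV : IsMajoranaAmbient mul B) {l m : ℝ} (hl : B (c.a 0) (c.a 1) = l)
    (hm : B (c.a 0) (c.a 2) = m) :
    mul (c.a 0) (c.σ 1 (-1)) = (-32 / 3 * l ^ 2 + 5 / 3 * l - 1 / 24 * m - 127 / 3072) • c.a 0 +
        (1 / 6 * l - 19 / 3072) • (c.a 1 + c.a (-1)) + (7 / 6144 : ℝ) • (c.a 2 + c.a (-2)) +
        (32 / 3 * l - 19 / 48) • c.σ 0 1 + (7 / 96 : ℝ) • c.σ 0 2 ∧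
      mul (c.σ 0 1) (c.σ 0 1) =
        (7 / 6 * l ^ 2 - 7 / 384 * l + 7 / 1536 * m - 7 / 98304) • c.a 0 +
        (49 / 768 * l - 245 / 196608) • (c.a 1 + c.a (-1)) +
        (49 / 196608 : ℝ) • (c.a 2 + c.a (-2)) +
        (-5 / 12 * l - 13 / 1536) • c.σ 0 1 + (-7 / 1536 : ℝ) • c.σ 0 2 +
        (7 / 2048 : ℝ) • c.σ 1 (-1) := by
  subst hl
  exact coreE hV (c.ax 0) (c.mul1 hV 0 1 (by norm_num)) (c.mul1 hV 0 (-1) (by norm_num))
    (c.mul_eq 0 2) (by rw [c.σ_refl 0 2 (-2) (by norm_num)]; exact c.mul_eq 0 (-2))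
    (c.ax 1).idem (c.ax (-1)).idem (c.mul_eq 1 (-1))
    (c.mul_s hV 0 1 (-1) (by norm_num) (by norm_num))
    (c.mul_s hV 1 0 2 (by norm_num) (by norm_num))
    (c.mul_s hV (-1) 0 (-2) (by norm_num) (by norm_num)) rfl (c.B1 hV 0 (-1) (by norm_num))
    ((c.B_two hV).trans hm) (c.ax 1).norm (c.ax (-1)).norm

theorem core1 (hV : IsMajoranaAmbient mul B) {l m : ℝ} (hl : B (c.a 0) (c.a 1) = l)
    (hm : B (c.a 0) (c.a 2) = m) :
      mul (c.σ 0 1) (c.σ 0 1) =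
        (7 / 6 * l ^ 2 - 7 / 384 * l + 7 / 1536 * m - 7 / 98304) • c.a 1 +
        (49 / 768 * l - 245 / 196608) • (c.a 0 + c.a 2) +
        (49 / 196608 : ℝ) • (c.a (-1) + c.a 3) +
        (-5 / 12 * l - 13 / 1536) • c.σ 0 1 + (-7 / 1536 : ℝ) • c.σ 1 (-1) +
        (7 / 2048 : ℝ) • c.σ 0 2 := by
  subst hl
  exact (coreE hV (c.ax 1) (c.mul1 hV 1 0 (by norm_num)) (c.mul1 hV 1 2 (by norm_num))
    (c.mul_eq 1 (-1)) (by rw [c.σ_refl 1 (-1) 3 (by norm_num)]; exact c.mul_eq 1 3)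
    (c.ax 0).idem (c.ax 2).idem (c.mul_eq 0 2)
    (c.mul_s hV 1 0 2 (by norm_num) (by norm_num))
    (c.mul_s hV 0 1 (-1) (by norm_num) (by norm_num))
    (c.mul_s hV 2 1 3 (by norm_num) (by norm_num)) (c.B1 hV 1 0 (by norm_num))
    (c.B1 hV 1 2 (by norm_num)) hm (c.ax 0).norm (c.ax 2).norm).2

/-- The linear relation `R`. -/
theorem relR (hV : IsMajoranaAmbient mul B) {l m : ℝ} (hl : B (c.a 0) (c.a 1) = l)
    (hm : B (c.a 0) (c.a 2) = m) :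
    c.a 3 = c.a (-2) + (256 * l - 6) • (c.a (-1) - c.a 2) +
      (32768 / 7 * l ^ 2 - 2304 / 7 * l + 128 / 7 * m + 33 / 7) • (c.a 0 - c.a 1) +
      (32 : ℝ) • (c.σ 1 (-1) - c.σ 0 2) := by
  linear_combination (norm := module) (196608 / 49 : ℝ) • ((c.core0 hV hl hm).2 - c.core1 hV hl hm)

/-- Sakuma's theorem: the pair of inner products `(a₀, a₁)`, `(a₀, a₂)` is one of nine, and the
chain closes up after at most six steps. -/
theorem sakuma (hV : IsMajoranaAmbient mul B) {l m : ℝ} (hl : B (c.a 0) (c.a 1) = l)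
    (hm : B (c.a 0) (c.a 2) = m) :
    ((l = 1 ∧ m = 1) ∨ (l = 1 / 8 ∧ m = 1) ∨ (l = 0 ∧ m = 1) ∨ (l = 13 / 256 ∧ m = 13 / 256) ∨
      (l = 1 / 64 ∧ m = 1 / 64) ∨ (l = 1 / 32 ∧ m = 0) ∨ (l = 1 / 64 ∧ m = 1 / 8) ∨
      (l = 3 / 128 ∧ m = 3 / 128) ∨ (l = 5 / 256 ∧ m = 13 / 256)) ∧
      ∃ (i : ℤ) (n : ℕ), 1 ≤ n ∧ n ≤ 6 ∧ c.a i = c.a (i + n) := by
  have sy := hV.2.1
  have hR := c.relR hV hl hm
  have hE := (c.core0 hV hl hm).1
  -- inner products of the axes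
  obtain ⟨x, hx⟩ : ∃ x, B (c.a 0) (c.a 3) = x := ⟨_, rfl⟩
  obtain ⟨y, hy⟩ : ∃ y, B (c.a (-1)) (c.a 3) = y := ⟨_, rfl⟩
  obtain ⟨y', hy'⟩ : ∃ y, B (c.a 2) (c.a (-2)) = y := ⟨_, rfl⟩
  obtain ⟨z, hz⟩ : ∃ z, B (c.a (-2)) (c.a 3) = z := ⟨_, rfl⟩
  obtain ⟨w, hw⟩ : ∃ w, B (c.a (-3)) (c.a 3) = w := ⟨_, rfl⟩
  have n := fun i => (c.ax i).norm
  have b1 := fun i j h => (c.B1 hV i j h).trans hl
  have bs := fun i => (c.B_s hV i).trans (by rw [hl])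
  have m0 : B (c.a 0) (c.a (-2)) = m := by
    rw [c.B_refl 0 0 (-2) 0 2 (by norm_num) (by norm_num), hm]
  have m1 : B (c.a 1) (c.a (-1)) = m := (c.B_two hV).trans hm
  have m2 : B (c.a 3) (c.a 1) = m := by
    rw [c.B_refl 1 3 1 (-1) 1 (by norm_num) (by norm_num), sy, m1]
  have m3 : B (c.a (-3)) (c.a (-1)) = m := by
    rw [c.B_refl 0 (-3) (-1) 3 1 (by norm_num) (by norm_num), m2]
  have x1 : B (c.a 2) (c.a (-1)) = x := by
    rw [c.B_refl 1 2 (-1) 0 3 (by norm_num) (by norm_num), hx]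
  have x2 : B (c.a (-2)) (c.a 1) = x := by
    rw [c.B_refl 0 (-2) 1 2 (-1) (by norm_num) (by norm_num), x1]
  have x3 : B (c.a (-3)) (c.a 0) = x := by
    rw [c.B_refl 0 (-3) 0 3 0 (by norm_num) (by norm_num), sy, hx]
  have y1 : B (c.a (-3)) (c.a 1) = y := by
    rw [c.B_refl 0 (-3) 1 3 (-1) (by norm_num) (by norm_num), sy, hy]
  have z1 : B (c.a (-3)) (c.a 2) = z := by
    rw [c.B_refl 0 (-3) 2 3 (-2) (by norm_num) (by norm_num), sy, hz]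
  -- the `σ₂`
  have e1 : c.σ 0 (-2) = c.σ 0 2 := c.σ_refl 0 (-2) 2 (by norm_num)
  have e2 : c.σ 2 0 = c.σ 0 2 := c.σ_comm hV _ _
  have e3 : c.σ (-2) 0 = c.σ 0 2 := by rw [c.σ_comm hV, e1]
  have e4 : c.σ 4 2 = c.σ 0 2 := by rw [c.σ_comm hV, c.σ_refl 2 4 0 (by norm_num), e2]
  have e5 : c.σ (-2) (-4) = c.σ 0 2 := by rw [c.σ_refl (-2) (-4) 0 (by norm_num), e3]
  have o1 : c.σ (-1) 1 = c.σ 1 (-1) := c.σ_comm hV _ _
  have o2 : c.σ 3 1 = c.σ 1 (-1) := by rw [c.σ_comm hV, c.σ_refl 1 3 (-1) (by norm_num)]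
  have o3 : c.σ (-1) (-3) = c.σ 1 (-1) := by rw [c.σ_refl (-1) (-3) 1 (by norm_num), o1]
  have o4 : c.σ (-3) (-1) = c.σ 1 (-1) := by rw [c.σ_comm hV, o3]
  have m4 : B (c.a 4) (c.a 2) = m := by
    rw [c.B_refl 2 4 2 0 2 (by norm_num) (by norm_num), hm]
  have m5 : B (c.a (-2)) (c.a (-4)) = m := by
    rw [c.B_refl (-2) (-2) (-4) (-2) 0 (by norm_num) (by norm_num), sy, m0]
  have E0 := c.B_σ hV 0 2
  have E2 := c.B_σ hV 2 0
  have E2' := c.B_σ hV (-2) 0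
  have E1' := c.B_mid hV (-1) 0 (-2) (by norm_num) (by norm_num)
  have E3 := c.B_mid hV 3 4 2 (by norm_num) (by norm_num)
  have E3' := c.B_mid hV (-3) (-2) (-4) (by norm_num) (by norm_num)
  have O0 := c.B_mid hV 0 1 (-1) (by norm_num) (by norm_num)
  have O2 := c.B_mid hV 2 3 1 (by norm_num) (by norm_num)
  have O2' := c.B_mid hV (-2) (-1) (-3) (by norm_num) (by norm_num)
  have O1' := c.B_σ hV (-1) 1
  have O3' := c.B_σ hV (-3) (-1)
  rw [hm] at E0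
  rw [e2, sy (c.a 2) (c.a 0), hm] at E2
  rw [e3, sy (c.a (-2)) (c.a 0), m0] at E2'
  rw [e1, hl, m0] at E1'
  rw [e4, hl, m4] at E3
  rw [e5, hl, m5] at E3'
  rw [hl, m1] at O0
  rw [o2, hl, m2] at O2
  rw [o3, hl, sy (c.a (-1)) (c.a (-3)), m3] at O2'
  rw [o1, sy (c.a (-1)) (c.a 1), m1] at O1'
  rw [o4, m3] at O3'
  have r0 := congrArg (B (c.a 0)) hR
  have r1 := congrArg (B (c.a (-1))) hR
  have r2 := congrArg (B (c.a 2)) hR
  have r3 := congrArg (B (c.a (-2))) hR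
  have r4 := congrArg (B (c.a (-3))) hR
  simp only [map_add, map_sub, map_smul, smul_eq_mul] at r0 r1 r2 r3 r4
  rw [hx, m0, b1 0 (-1) (by norm_num), hm, n, hl, O0, E0] at r0
  rw [hy, b1 (-1) (-2) (by norm_num), n, sy _ (c.a 2), x1, b1 (-1) 0 (by norm_num),
    sy _ (c.a 1), m1, O1', E1'] at r1
  rw [b1 2 3 (by norm_num), hy', x1, n, sy _ (c.a 0), hm, b1 2 1 (by norm_num), O2, E2] at r2
  rw [hz, n, b1 (-2) (-1) (by norm_num), sy _ (c.a 2), hy', sy _ (c.a 0), m0, x2, O2', E2'] at r3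
  rw [hw, b1 (-3) (-2) (by norm_num), m3, z1, x3, y1, O3', E3'] at r4
  -- the product `a₀ a₃`
  have q := congrArg (mul (c.a 0)) hR
  have q1 := c.mul_σ 0 2 (-2) (by norm_num)
  have q2 := c.mul_eq 0 (-2)
  rw [hm] at q1
  rw [e1] at q2
  simp only [map_add, map_sub, map_smul, q1, q2, hE, c.mul_eq 0 2, c.mul_eq 0 1,
    c.mul1 hV 0 (-1) (by norm_num), (c.ax 0).idem] at q
  have p1 := congrArg (B (c.a 2)) q
  have p2 := congrArg (B (c.a 3)) q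
  rw [hV.1, hV.2.2.2.1, c.mul1 hV 2 3 (by norm_num), sy] at p1
  rw [hV.1, hV.2.2.2.1, (c.ax 3).idem] at p2
  simp only [map_add, map_sub, map_smul, smul_eq_mul, bs, E2, E3, n, hy', x1, hx, hm,
    sy (c.a 2) (c.a 0), sy (c.a 3) (c.a 0), b1 2 1 (by norm_num), b1 3 2 (by norm_num), m2,
    sy (c.a 3) (c.a (-1)), hy, sy (c.a 3) (c.a (-2)), hz] at p1 p2
  have hx' : x = (-32768/7)*l^3 + (36864/7)*l^2 + (-1920/7)*l*m + (-2169/7)*l + (-33/7)*m +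
      (33/7) := by linear_combination r0
  have hy1 : y = (8388608/7)*l^4 + (-9601024/7)*l^3 + (65536)*l^2*m + (110592)*l^2 +
      (-640/7)*l*m + (-128/7)*m^2 + (-19840/7)*l + (-3)*m + (156/7) := by
    rw [hx'] at r1; linear_combination r1
  have hy2 : y' = (8388608/7)*l^4 + (-9601024/7)*l^3 + (65536)*l^2*m + (110592)*l^2 +
      (-640/7)*l*m + (-128/7)*m^2 + (-19840/7)*l + (-3)*m + (156/7) := by
    rw [hx'] at r2; linear_combination (-1) * r2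
  have h9 := nine_points (l := l) (m := m)
    (by rw [hx', hy2] at p1; linear_combination (-56 / 3) * p1)
    (by rw [r3, hx', hy1, hy2] at p2; linear_combination (-196 / 9) * p2)
  refine ⟨h9, ?_⟩
  have fin : ∀ (i j : ℤ) (k : ℕ), j = i + k → 1 ≤ k → k ≤ 6 → B (c.a i) (c.a j) = 1 →
      ∃ (i : ℤ) (n : ℕ), 1 ≤ n ∧ n ≤ 6 ∧ c.a i = c.a (i + n) := fun i j k h h1 h6 hB =>
    ⟨i, k, h1, h6, h ▸ eq_of_B_one hV (n i) (n j) hB⟩
  rcases h9 with ⟨-, h⟩ | ⟨-, h⟩ | ⟨-, h⟩ | ⟨h, h'⟩ | ⟨h, h'⟩ | ⟨h, h'⟩ | ⟨h, h'⟩ | ⟨h, h'⟩ | ⟨h, h'⟩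
  · exact fin 0 2 2 (by norm_num) (by norm_num) (by norm_num) (hm.trans h)
  · exact fin 0 2 2 (by norm_num) (by norm_num) (by norm_num) (hm.trans h)
  · exact fin 0 2 2 (by norm_num) (by norm_num) (by norm_num) (hm.trans h)
  · exact fin 0 3 3 (by norm_num) (by norm_num) (by norm_num)
      (by rw [hx, hx', h, h']; norm_num)
  · exact fin 0 3 3 (by norm_num) (by norm_num) (by norm_num)
      (by rw [hx, hx', h, h']; norm_num)
  · exact fin (-1) 3 4 (by norm_num) (by norm_num) (by norm_num)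
      (by rw [hy, hy1, h, h']; norm_num)
  · exact fin (-1) 3 4 (by norm_num) (by norm_num) (by norm_num)
      (by rw [hy, hy1, h, h']; norm_num)
  · exact fin (-2) 3 5 (by norm_num) (by norm_num) (by norm_num)
      (by rw [hz, r3, hx', hy2, h, h']; norm_num)
  · exact fin (-3) 3 6 (by norm_num) (by norm_num) (by norm_num)
      (by rw [hw, r4, r3, hx', hy1, hy2, h, h']; norm_num)

end Chain

end CF.Known.Maj
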