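import Cfsg.Agent.Known.Maj.Basic

/-! Sakuma's theorem, part 1: the products `a₀ σ₁`, `a₀ σ₂ᵒ` and `σ₁ σ₁` from the fusion law. -/

set_option autoImplicit false

namespace CF.Known.Maj

open Cfsg.Axial

variable {V : Type*} [AddCommGroup V] [Module ℝ V] {mul : V →ₗ[ℝ] V →ₗ[ℝ] V}
  {B : LinearMap.BilinForm ℝ V}

theorem Ax.B_tau {τ : V ≃ₗ[ℝ] V} {a : V} (h : Ax mul B τ a) (b : V) : B a (τ b) = B a b := by
  conv_lhs => rw [← h.fix, h.hB]

theorem Ax.lemA {τ : V ≃ₗ[ℝ] V} {a : V} (h : Ax mul B τ a) {b s : V}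
    (hs : mul a b = s + (1 / 32 : ℝ) • (a + b)) :
    mul a (τ b) = s + (1 / 32 : ℝ) • (a + τ b) ∧
      mul a s = (7 / 32 : ℝ) • s + (3 / 4 * B a b - 25 / 1024) • a +
        (7 / 2048 : ℝ) • (b + τ b) := by
  have h1 : mul a (τ b) = s + (1 / 32 : ℝ) • (a + τ b) := by
    linear_combination (norm := module) hs - h.odd b
  refine ⟨h1, ?_⟩
  have h2 := h.even (b + τ b) (by rw [map_add, h.inv, add_comm])
  simp only [map_add, map_smul, hs, h1, h.idem, h.B_tau] at h2
  linear_combination (norm := module) (1 / 2 : ℝ) • h2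

theorem B_sigma (hV : IsMajoranaAmbient mul B) {a b s : V} (ha : mul a a = a) (hn : B a a = 1)
    (hs : mul a b = s + (1 / 32 : ℝ) • (a + b)) :
    B a s = B a b - 1 / 32 * (1 + B a b) := by
  have := hV.2.2.2.1 a a b
  rw [ha, hs] at this
  simp only [map_add, map_smul, hn, smul_eq_mul] at this
  linear_combination this

theorem B_sigma_sigma (hV : IsMajoranaAmbient mul B) {a b b' s : V} {l m : ℝ}
    (hs : mul a b = s + (1 / 32 : ℝ) • (a + b))
    (has : mul a s = (7 / 32 : ℝ) • s + (3 / 4 * l - 25 / 1024) • a + (7 / 2048 : ℝ) • (b + b'))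
    (Bas : B a s = l - 1 / 32 * (1 + l)) (Bbs : B b s = l - 1 / 32 * (1 + l))
    (Bba : B b a = l) (Bbb : B b b = 1) (Bbb' : B b b' = m) :
    B s s = 5 / 32 * (l - 1 / 32 * (1 + l)) + (3 / 4 * l - 25 / 1024) * l + 7 / 2048 * (1 + m) := by
  have := hV.2.2.2.1 b a s
  rw [hV.1 b a, has, hs] at this
  simp only [map_add, map_smul, LinearMap.add_apply, LinearMap.smul_apply, smul_eq_mul, Bas, Bbs,
    Bba, Bbb, Bbb'] at this
  linear_combination (-1) * this

theorem coreE (hV : IsMajoranaAmbient mul B) {τ : V ≃ₗ[ℝ] V} {a : V} (h : Ax mul B τ a)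
    {b b' c c' s e o : V} {l m : ℝ}
    (hab : mul a b = s + (1 / 32 : ℝ) • (a + b)) (hab' : mul a b' = s + (1 / 32 : ℝ) • (a + b'))
    (hac : mul a c = e + (1 / 32 : ℝ) • (a + c)) (hac' : mul a c' = e + (1 / 32 : ℝ) • (a + c'))
    (hbb : mul b b = b) (hb'b' : mul b' b' = b') (hbb' : mul b b' = o + (1 / 32 : ℝ) • (b + b'))
    (has : mul a s = (7 / 32 : ℝ) • s + (3 / 4 * l - 25 / 1024) • a + (7 / 2048 : ℝ) • (b + b'))
    (hbs : mul b s = (7 / 32 : ℝ) • s + (3 / 4 * l - 25 / 1024) • b + (7 / 2048 : ℝ) • (a + c))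
    (hb's : mul b' s = (7 / 32 : ℝ) • s + (3 / 4 * l - 25 / 1024) • b' +
      (7 / 2048 : ℝ) • (a + c'))
    (Bab : B a b = l) (Bab' : B a b' = l) (Bbb' : B b b' = m) (Bbb : B b b = 1)
    (Bb'b' : B b' b' = 1) :
    mul a o = (-32 / 3 * l ^ 2 + 5 / 3 * l - 1 / 24 * m - 127 / 3072) • a +
        (1 / 6 * l - 19 / 3072) • (b + b') + (7 / 6144 : ℝ) • (c + c') +
        (32 / 3 * l - 19 / 48) • s + (7 / 96 : ℝ) • e ∧
      mul s s = (7 / 6 * l ^ 2 - 7 / 384 * l + 7 / 1536 * m - 7 / 98304) • a +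
        (49 / 768 * l - 245 / 196608) • (b + b') + (49 / 196608 : ℝ) • (c + c') +
        (-5 / 12 * l - 13 / 1536) • s + (-7 / 1536 : ℝ) • e + (7 / 2048 : ℝ) • o := by
  have cm := hV.1
  have sy := hV.2.1
  have haa := h.idem
  have Baa := h.norm
  have hba : mul b a = _ := (cm b a).trans hab
  have hb'a : mul b' a = _ := (cm b' a).trans hab'
  have hb'b : mul b' b = _ := (cm b' b).trans hbb'
  have hsa : mul s a = _ := (cm s a).trans has
  have hsb : mul s b = _ := (cm s b).trans hbs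
  have hsb' : mul s b' = _ := (cm s b').trans hb's
  have Bba : B b a = l := (sy _ _).trans Bab
  have Bb'a : B b' a = l := (sy _ _).trans Bab'
  have Bb'b : B b' b = m := (sy _ _).trans Bbb'
  have Bas : B a s = l - 1 / 32 * (1 + l) := by rw [B_sigma hV haa Baa hab, Bab]
  have Bbs : B b s = l - 1 / 32 * (1 + l) := by
    rw [B_sigma hV hbb Bbb (hba.trans (by rw [add_comm a b])), Bba]
  have Bb's : B b' s = l - 1 / 32 * (1 + l) := by
    rw [B_sigma hV hb'b' Bb'b' (hb'a.trans (by rw [add_comm a b'])), Bb'a]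
  have Bss := B_sigma_sigma hV hab has Bas Bbs Bba Bbb Bbb'
  have Bsa : B s a = _ := (sy _ _).trans Bas
  have Bsb : B s b = _ := (sy _ _).trans Bbs
  have Bsb' : B s b' = _ := (sy _ _).trans Bb's
  have hα : mul a ((-4 : ℝ) • s + (3 * l - 1 / 8) • a + (7 / 16 : ℝ) • (b + b')) = 0 := by
    simp only [map_add, map_smul, haa, hab, hab', has]
    module
  have hβ : mul a ((4 : ℝ) • s + (1 / 8 - 4 * l) • a + (1 / 16 : ℝ) • (b + b')) =
      (1 / 4 : ℝ) • ((4 : ℝ) • s + (1 / 8 - 4 * l) • a + (1 / 16 : ℝ) • (b + b')) := by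
    simp only [map_add, map_smul, haa, hab, hab', has]
    module
  have h00 := h.f00 _ _ hα hα
  have h04 := h.f04 _ _ hα hβ
  have h44 := h.f44 _ _ hβ hβ
  simp only [map_add, map_smul, LinearMap.add_apply, LinearMap.smul_apply, smul_eq_mul, haa, hab,
    hab', hac, hac', hbb, hb'b', hbb', has, hbs, hb's, hba, hb'a, hb'b, hsa, hsb, hsb', Baa, Bab,
    Bab', Bbb', Bbb, Bb'b', Bba, Bb'a, Bb'b, Bas, Bbs, Bb's, Bss, Bsa, Bsb, Bsb'] at h00 h04 h44
  have hE : mul a o = (-32 / 3 * l ^ 2 + 5 / 3 * l - 1 / 24 * m - 127 / 3072) • a +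
        (1 / 6 * l - 19 / 3072) • (b + b') + (7 / 6144 : ℝ) • (c + c') +
        (32 / 3 * l - 19 / 48) • s + (7 / 96 : ℝ) • e := by
    linear_combination (norm := module) (8 / 3 : ℝ) • h00 - (8 / 3 : ℝ) • h44
  refine ⟨hE, ?_⟩
  linear_combination (norm := module) (1 / 4 : ℝ) • h00 + (1 / 4 : ℝ) • h04 - (7 / 64 : ℝ) • hE

/-- The nine solutions of the two Sakuma polynomials. -/
theorem nine_points {l m : ℝ}
    (p1 : (-2097152)*l^4 + (2326528)*l^3 + (-40960)*l^2*m + (-184320)*l^2 + (-8896)*l*m +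
      (-128)*m^2 + (4800)*l + (167)*m + (-39) = 0)
    (p2 : (536870912/3)*l^5 + (-605028352/3)*l^4 + (26214400/3)*l^3*m + (14712832)*l^3 +
      (-1593344/3)*l^2*m + (94208/3)*l*m^2 + (-286720)*l^2 + (165856/3)*l*m + (928)*m^2 +
      (-672)*l + (-967)*m + (39) = 0) :
    (l = 1 ∧ m = 1) ∨ (l = 1 / 8 ∧ m = 1) ∨ (l = 0 ∧ m = 1) ∨ (l = 13 / 256 ∧ m = 13 / 256) ∨
      (l = 1 / 64 ∧ m = 1 / 64) ∨ (l = 1 / 32 ∧ m = 0) ∨ (l = 1 / 64 ∧ m = 1 / 8) ∨
      (l = 3 / 128 ∧ m = 3 / 128) ∨ (l = 5 / 256 ∧ m = 13 / 256) := by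
  have hU : ((167772160)*l^3 + (385351680)*l^2 + (-4065280)*l + (-31200)) * m +
      ((42949672960)*l^5 + (-45298483200)*l^4 + (1745879040)*l^3 + (57016320)*l^2 +
        (-3143680)*l + (31200)) = 0 := by
    linear_combination (-128) * p2 - ((94208/3)*l + (928)) * p1
  have hres : l * (64 * l - 1) ^ 2 * (256 * l - 5) * (128 * l - 3) * (32 * l - 1) *
      (256 * l - 13) * (8 * l - 1) * (l - 1) = 0 := by
    linear_combination ((16777216/49)*l^6 + (1572864)*l^5 + (87697408/49)*l^4 +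
      (-1873728/49)*l^3 + (-71711/784)*l^2 + (77415/25088)*l + (38025/3211264)) * p1 +
      ((4096/245)*l^5 + (9824/35)*l^4 + (64/245)*l^3*m + (35883/980)*l^3 + (3/5)*l^2*m +
      (-33293/25088)*l^2 + (-397/62720)*l*m + (7849/802816)*l + (-39/802816)*m +
      (1521/102760448)) * hU
  simp only [mul_eq_zero, pow_eq_zero_iff (two_ne_zero)] at hres
  rcases hres with ((((((h | h) | h) | h) | h) | h) | h) | h
  · have : m = 1 := by subst h; linear_combination (-1 / 31200) * hU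
    simp [h, this]
  · have hl : l = 1 / 64 := by linarith
    subst hl
    have : (m - 1 / 64) * (m - 1 / 8) = 0 := by linear_combination (-1 / 128) * p1
    rcases mul_eq_zero.1 this with h' | h'
    · have : m = 1 / 64 := by linarith
      simp [this]
    · have : m = 1 / 8 := by linarith
      simp [this]
  · have hl : l = 5 / 256 := by linarith
    have : m = 13 / 256 := by subst hl; linear_combination (1 / 37650) * hU
    simp [hl, this]
  · have hl : l = 3 / 128 := by linarith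
    have : m = 3 / 128 := by subst hl; linear_combination (1 / 87360) * hU
    simp [hl, this]
  · have hl : l = 1 / 32 := by linarith
    have : m = 0 := by subst hl; linear_combination (1 / 223200) * hU
    simp [hl, this]
  · have hl : l = 13 / 256 := by linarith
    have : m = 13 / 256 := by subst hl; linear_combination (1 / 778050) * hU
    simp [hl, this]
  · have hl : l = 1 / 8 := by linarith
    have : m = 1 := by subst hl; linear_combination (1 / 5809440) * hU
    simp [hl, this]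
  · have hl : l = 1 := by linarith
    have : m = 1 := by subst hl; linear_combination (1 / 549027360) * hU
    simp [hl, this]

end CF.Known.Maj
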