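import Cfsg.Agent.Known.Maj.Chain

/-! Sakuma's theorem, part 3: the chain of two Majorana pairs. -/

set_option autoImplicit false

namespace CF.Known.Maj

open Cfsg.Axial

variable {V : Type*} [AddCommGroup V] [Module ℝ V] {mul : V →ₗ[ℝ] V →ₗ[ℝ] V}
  {B : LinearMap.BilinForm ℝ V}

/-- The isometric automorphisms of the algebra. -/
def isoAut (mul : V →ₗ[ℝ] V →ₗ[ℝ] V) (B : LinearMap.BilinForm ℝ V) : Subgroup (V ≃ₗ[ℝ] V) where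
  carrier := {g | (∀ u v, g (mul u v) = mul (g u) (g v)) ∧ ∀ u v, B (g u) (g v) = B u v}
  one_mem' := ⟨fun _ _ => rfl, fun _ _ => rfl⟩
  mul_mem' := fun {g h} hg hh => ⟨fun u v => by
    rw [LinearEquiv.mul_apply, hh.1, hg.1]; rfl, fun u v => by
    rw [LinearEquiv.mul_apply, LinearEquiv.mul_apply, hg.2, hh.2]⟩
  inv_mem' := fun {g} hg => ⟨symm_mul hg.1, fun u v => by
    rw [← hg.2]; change B (g (g.symm u)) (g (g.symm v)) = _; simp⟩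

theorem exists_chain (hV : IsMajoranaAmbient mul B) {μ₀ μ₁ : V ≃ₗ[ℝ] V} {a₀ a₁ : V}
    (h₀ : IsMajoranaPair mul B μ₀ a₀) (h₁ : IsMajoranaPair mul B μ₁ a₁) (hn₀ : B a₀ a₀ = 1)
    (hn₁ : B a₁ a₁ = 1) :
    ∃ c : Chain mul B, c.a 0 = a₀ ∧ c.a 1 = a₁ ∧ (∀ i, c.t i = (μ₁ * μ₀) ^ i * μ₀) ∧
      ∀ i, IsMajoranaPair mul B (c.t i) (c.a i) := by
  set ρ := μ₁ * μ₀ with hρ
  have s0 := pair_mul_self h₀
  have s1 := pair_mul_self h₁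
  have hμ₁ : μ₁ = ρ * μ₀ := by rw [hρ, mul_assoc, s0, mul_one]
  have hinv : μ₀ * ρ * μ₀⁻¹ = ρ⁻¹ := by
    rw [eq_inv_iff_mul_eq_one, hρ]
    calc μ₀ * (μ₁ * μ₀) * μ₀⁻¹ * (μ₁ * μ₀) = μ₀ * (μ₁ * μ₁) * μ₀ := by group
      _ = 1 := by rw [s1, mul_one, s0]
  have hc : ∀ k : ℤ, μ₀ * ρ ^ k = ρ ^ (-k) * μ₀ := fun k => by
    have := conj_zpow (a := μ₀) (b := ρ) (i := k)
    rw [hinv, inv_zpow'] at this
    rw [this]; group
  have hρA : ∀ k : ℤ, ρ ^ k ∈ isoAut mul B := fun k =>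
    zpow_mem (mul_mem (show μ₁ ∈ isoAut mul B from ⟨h₁.1, h₁.2.1⟩)
      (show μ₀ ∈ isoAut mul B from ⟨h₀.1, h₀.2.1⟩)) k
  have f0 : μ₀ a₀ = a₀ := (Ax.of_pair hV h₀ hn₀).fix
  have f1 : μ₁ a₁ = a₁ := (Ax.of_pair hV h₁ hn₁).fix
  let a : ℤ → V := fun i => (ρ ^ (i / 2)) (if i % 2 = 0 then a₀ else a₁)
  have ae : ∀ k : ℤ, a (2 * k) = (ρ ^ k) a₀ := fun k => by
    simp only [a]
    rw [if_pos (by omega), show 2 * k / 2 = k by omega]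
  have ao : ∀ k : ℤ, a (2 * k + 1) = (ρ ^ k) a₁ := fun k => by
    simp only [a]
    rw [if_neg (by omega), show (2 * k + 1) / 2 = k by omega]
  have par : ∀ i : ℤ, ∃ k, i = 2 * k ∨ i = 2 * k + 1 := fun i => ⟨i / 2, by omega⟩
  have hp : ∀ i : ℤ, IsMajoranaPair mul B (ρ ^ i * μ₀) (a i) ∧ B (a i) (a i) = 1 := by
    intro i
    obtain ⟨k, rfl | rfl⟩ := par i
    · rw [ae]
      refine ⟨?_, by rw [(hρA k).2, hn₀]⟩
      have := pair_conj h₀ (hρA k).1 (hρA k).2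
      rwa [← zpow_neg, mul_assoc, hc, neg_neg, ← mul_assoc, ← zpow_add, ← two_mul] at this
    · rw [ao]
      refine ⟨?_, by rw [(hρA k).2, hn₁]⟩
      have := pair_conj h₁ (hρA k).1 (hρA k).2
      rwa [hμ₁, ← zpow_neg, ← mul_assoc, mul_assoc, hc, neg_neg, ← mul_assoc, ← zpow_add_one,
        ← zpow_add, show k + 1 + k = 2 * k + 1 by ring] at this
  refine ⟨⟨a, fun i => ρ ^ i * μ₀, fun i => Ax.of_pair hV (hp i).1 (hp i).2, ?_⟩, ?_, ?_,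
    fun i => rfl, fun i => (hp i).1⟩
  · intro i j k h
    obtain ⟨r, rfl | rfl⟩ := par j
    · rw [show k = 2 * (i - r) by omega, ae, ae, ← LinearEquiv.mul_apply, mul_assoc, hc,
        ← mul_assoc, ← zpow_add, LinearEquiv.mul_apply, f0, sub_eq_add_neg]
    · rw [show k = 2 * (i - r - 1) + 1 by omega, ao, ao, ← LinearEquiv.mul_apply, mul_assoc, hc,
        ← mul_assoc, ← zpow_add, show i + -r = (i - r - 1) + 1 by ring, zpow_add_one, mul_assoc,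
        ← hμ₁, LinearEquiv.mul_apply, f1]
  · simpa using ae 0
  · simpa using ao 0

theorem six_transposition (hV : IsMajoranaAmbient mul B) {μ₀ μ₁ : V ≃ₗ[ℝ] V} {a₀ a₁ : V}
    (h₀ : IsMajoranaPair mul B μ₀ a₀) (h₁ : IsMajoranaPair mul B μ₁ a₁) (hn₀ : B a₀ a₀ = 1)
    (hn₁ : B a₁ a₁ = 1) : ∃ n : ℕ, 1 ≤ n ∧ n ≤ 6 ∧ (μ₀ * μ₁) ^ n = 1 := by
  obtain ⟨c, -, -, ht, hp⟩ := exists_chain hV h₀ h₁ hn₀ hn₁
  obtain ⟨i, n, h1, h6, he⟩ := (c.sakuma hV rfl rfl).2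
  refine ⟨n, h1, h6, ?_⟩
  have := pair_unique (hp i) (he ▸ hp (i + n))
  rw [ht, ht, zpow_add, zpow_natCast] at this
  have h2 : (μ₁ * μ₀) ^ n = 1 := by simpa using (mul_right_cancel this).symm
  have h3 : μ₀ * μ₁ = (μ₁ * μ₀)⁻¹ := by
    rw [mul_inv_rev, inv_eq_of_mul_eq_one_right (pair_mul_self h₀),
      inv_eq_of_mul_eq_one_right (pair_mul_self h₁)]
  rw [h3, inv_pow, h2, inv_one]

theorem two_types (hV : IsMajoranaAmbient mul B) {μ₀ μ₁ : V ≃ₗ[ℝ] V} {a₀ a₁ : V}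
    (h₀ : IsMajoranaPair mul B μ₀ a₀) (h₁ : IsMajoranaPair mul B μ₁ a₁) (hn₀ : B a₀ a₀ = 1)
    (hn₁ : B a₁ a₁ = 1) (f0 : μ₁ a₀ = a₀) (f1 : μ₀ a₁ = a₁) (hne : a₀ ≠ a₁) :
    (B a₀ a₁ = 0 ∧ mul a₀ a₁ = 0) ∨ (B a₀ a₁ = 1 / 8 ∧
      mul (a₀ + a₁ - (8 : ℝ) • mul a₀ a₁) (a₀ + a₁ - (8 : ℝ) • mul a₀ a₁) =
        a₀ + a₁ - (8 : ℝ) • mul a₀ a₁ ∧
      mul a₀ (a₀ + a₁ - (8 : ℝ) • mul a₀ a₁) =
        (1 / 8 : ℝ) • (a₀ + (a₀ + a₁ - (8 : ℝ) • mul a₀ a₁) - a₁) ∧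
      mul a₁ (a₀ + a₁ - (8 : ℝ) • mul a₀ a₁) =
        (1 / 8 : ℝ) • (a₁ + (a₀ + a₁ - (8 : ℝ) • mul a₀ a₁) - a₀)) := by
  obtain ⟨c, e0, e1, ht, -⟩ := exists_chain hV h₀ h₁ hn₀ hn₁
  have t0 : c.t 0 = μ₀ := by rw [ht]; simp
  have t1 : c.t 1 = μ₁ := by rw [ht, zpow_one, mul_assoc, pair_mul_self h₀, mul_one]
  have e2 : c.a 2 = a₀ := by rw [← c.refl 1 0 2 (by norm_num), t1, e0, f0]
  have e1' : c.a (-1) = a₁ := by rw [← c.refl 0 1 (-1) (by norm_num), t0, e1, f1]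
  have e2' : c.a (-2) = a₀ := by
    rw [← c.refl 0 2 (-2) (by norm_num), e2, ← e0, (c.ax 0).fix]
  have hm : B (c.a 0) (c.a 2) = 1 := by rw [e0, e2, hn₀]
  have hl : B (c.a 0) (c.a 1) = B a₀ a₁ := by rw [e0, e1]
  have i0 := pair_idem h₀
  have i1 := pair_idem h₁
  have h9 := (c.sakuma hV hl hm).1
  norm_num at h9
  rcases h9 with h | h | h
  · exact absurd (eq_of_B_one hV hn₀ hn₁ h) hne
  · right
    have hS := (c.core0 hV (hl.trans h) hm).2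
    have h0s := c.mul_s hV 0 1 (-1) (by norm_num) (by norm_num)
    have h1s := c.mul_s hV 1 0 2 (by norm_num) (by norm_num)
    have h01 := c.mul_eq 0 1
    have se : c.σ 0 2 = (15 / 16 : ℝ) • a₀ := by rw [Chain.σ, e0, e2, i0]; module
    have so : c.σ 1 (-1) = (15 / 16 : ℝ) • a₁ := by rw [Chain.σ, e1, e1', i1]; module
    rw [hl, h] at h0s h1s
    rw [se, so] at hS
    simp only [e0, e1, e2, e1', e2'] at hS h0s h1s h01
    generalize c.σ 0 1 = s at hS h0s h1s h01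
    have h10 : mul a₁ a₀ = _ := (hV.1 _ _).trans h01
    have hs0 : mul s a₀ = _ := (hV.1 _ _).trans h0s
    have hs1 : mul s a₁ = _ := (hV.1 _ _).trans h1s
    refine ⟨h, ?_, ?_, ?_⟩ <;>
    · simp only [map_add, map_sub, map_smul, LinearMap.add_apply, LinearMap.sub_apply,
        LinearMap.smul_apply, h01, h10, hs0, hs1, h0s, h1s, hS, i0, i1]
      module
  · left
    refine ⟨h, ?_⟩
    by_contra hne0
    have h1 := hV.2.2.1 _ hne0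
    have h2 := hV.2.2.2.2 a₀ a₁
    rw [i0, i1, h] at h2
    linarith

end CF.Known.Maj
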